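import Cfsg.Agent.CosetEnum.MO7.T2Data

/-! Permutation table (generated data, owner: helper28). -/

set_option autoImplicit false
set_option maxRecDepth 1000000

namespace Cfsg.Agent.CosetEnum.MO7T2

theorem r12 : allR (tst P iv lets RL) 1440 120 = true := by decide +kernel

theorem o12 : allR (orbC P lets [] 0 2240) 1440 120 = true := by decide +kernel

end Cfsg.Agent.CosetEnum.MO7T2
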