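import Cfsg.Agent.CosetEnum.Step
import Cfsg.Agent.CosetEnum.Front2
import Cfsg.Agent.CosetEnum.MO7.AP0
import Cfsg.Agent.CosetEnum.MO7.BP0
import Cfsg.Agent.CosetEnum.MO7.BP1
import Cfsg.Agent.CosetEnum.MO7.CP0
import Cfsg.Agent.CosetEnum.MO7.DP0
import Cfsg.Agent.CosetEnum.MO7.DP1
import Cfsg.Agent.CosetEnum.MO7.DP2
import Cfsg.Agent.CosetEnum.MO7.DP3
import Cfsg.Agent.CosetEnum.Level
import Cfsg.Agent.CosetEnum.MO7.T2R0
import Cfsg.Agent.CosetEnum.MO7.T2R1
import Cfsg.Agent.CosetEnum.MO7.T2R2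
import Cfsg.Agent.CosetEnum.MO7.T2R3
import Cfsg.Agent.CosetEnum.MO7.T2R4
import Cfsg.Agent.CosetEnum.MO7.T2R5
import Cfsg.Agent.CosetEnum.MO7.T2R6
import Cfsg.Agent.CosetEnum.MO7.T2R7
import Cfsg.Agent.CosetEnum.MO7.T2R8
import Cfsg.Agent.CosetEnum.MO7.T2R9
import Cfsg.Agent.CosetEnum.MO7.T2R10
import Cfsg.Agent.CosetEnum.MO7.T2R11
import Cfsg.Agent.CosetEnum.MO7.T2R12
import Cfsg.Agent.CosetEnum.MO7.T2R13
import Cfsg.Agent.CosetEnum.MO7.T2R14
import Cfsg.Agent.CosetEnum.MO7.T2R15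
import Cfsg.Agent.CosetEnum.MO7.T2R16
import Cfsg.Agent.CosetEnum.MO7.T2R17
import Cfsg.Agent.CosetEnum.MO7.T2R18
import Cfsg.Agent.CosetEnum.MO7.T3R0
import Cfsg.Agent.CosetEnum.MO7.T3R1
import Cfsg.Agent.CosetEnum.MO7.T3R2
import Cfsg.Agent.CosetEnum.MO7.T3R3
import Cfsg.Agent.CosetEnum.MO7.T3R4
import Cfsg.Agent.CosetEnum.MO7.T3R5
import Cfsg.Agent.CosetEnum.MO7.T3R6
import Cfsg.Agent.CosetEnum.MO7.T3R7
import Cfsg.Agent.CosetEnum.MO7.T3R8
import Cfsg.Agent.CosetEnum.MO7.T3R9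

/-! Certificates of coset enumerations and tables (generated, owner: helper28). -/

set_option autoImplicit false
set_option maxRecDepth 1000000

namespace Cfsg.Agent.CosetEnum.MO7A

theorem st : staticA 6 iv (RL.map expand) subs P L = true := by decide +kernel

theorem seg : Seg P L P.m 120 :=
  (Seg.nil).snoc part0

theorem cert : Cert 6 iv RL subs 120 := fun g H hl hrels hsubs =>
  upperA g H 6 iv hl (RL.map expand) subs hrels hsubs P L rfl st seg

end Cfsg.Agent.CosetEnum.MO7A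
namespace Cfsg.Agent.CosetEnum.MO7B

theorem st : staticA 10 iv (RL.map expand) subs P L = true := by decide +kernel

theorem seg : Seg P L P.m 336 :=
  ((Seg.nil).snoc part0).snoc part1

theorem cert : Cert 10 iv RL subs 336 := fun g H hl hrels hsubs =>
  upperA g H 10 iv hl (RL.map expand) subs hrels hsubs P L rfl st seg

end Cfsg.Agent.CosetEnum.MO7B
namespace Cfsg.Agent.CosetEnum.MO7C

theorem st : staticA 12 iv (RL.map expand) subs P L = true := by decide +kernel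

theorem seg : Seg P L P.m 72 :=
  (Seg.nil).snoc part0

theorem cert : Cert 12 iv RL subs 72 := fun g H hl hrels hsubs =>
  upperA g H 12 iv hl (RL.map expand) subs hrels hsubs P L rfl st seg

end Cfsg.Agent.CosetEnum.MO7C
namespace Cfsg.Agent.CosetEnum.MO7D

theorem st : staticA 14 iv (RL.map expand) subs P L = true := by decide +kernel

theorem seg : Seg P L P.m 9477 :=
  ((((Seg.nil).snoc part0).snoc part1).snoc part2).snoc part3

theorem cert : Cert 14 iv RL subs 9477 := fun g H hl hrels hsubs =>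
  upperA g H 14 iv hl (RL.map expand) subs hrels hsubs P L rfl st seg

end Cfsg.Agent.CosetEnum.MO7D
namespace Cfsg.Agent.CosetEnum.MO7T2

theorem st : letsB 14 iv lets RL = true := by decide +kernel

theorem tabOK : TabOK P 14 iv lets RL := ⟨st, ((((((((((((((((((Cov.of r0 rfl).trans (Cov.of r1 rfl)).trans (Cov.of r2 rfl)).trans (Cov.of r3 rfl)).trans (Cov.of r4 rfl)).trans (Cov.of r5 rfl)).trans (Cov.of r6 rfl)).trans (Cov.of r7 rfl)).trans (Cov.of r8 rfl)).trans (Cov.of r9 rfl)).trans (Cov.of r10 rfl)).trans (Cov.of r11 rfl)).trans (Cov.of r12 rfl)).trans (Cov.of r13 rfl)).trans (Cov.of r14 rfl)).trans (Cov.of r15 rfl)).trans (Cov.of r16 rfl)).trans (Cov.of r17 rfl)).trans (Cov.of r18 rfl)⟩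

theorem covO : Cov (orbC P lets [] 0 P.m) 0 P.m := ((((((((((((((((((Cov.of o0 rfl).trans (Cov.of o1 rfl)).trans (Cov.of o2 rfl)).trans (Cov.of o3 rfl)).trans (Cov.of o4 rfl)).trans (Cov.of o5 rfl)).trans (Cov.of o6 rfl)).trans (Cov.of o7 rfl)).trans (Cov.of o8 rfl)).trans (Cov.of o9 rfl)).trans (Cov.of o10 rfl)).trans (Cov.of o11 rfl)).trans (Cov.of o12 rfl)).trans (Cov.of o13 rfl)).trans (Cov.of o14 rfl)).trans (Cov.of o15 rfl)).trans (Cov.of o16 rfl)).trans (Cov.of o17 rfl)).trans (Cov.of o18 rfl)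

end Cfsg.Agent.CosetEnum.MO7T2
namespace Cfsg.Agent.CosetEnum.MO7T3

theorem st : letsB 14 iv lets RL = true := by decide +kernel

theorem tabOK : TabOK P 14 iv lets RL := ⟨st, (((((((((Cov.of r0 rfl).trans (Cov.of r1 rfl)).trans (Cov.of r2 rfl)).trans (Cov.of r3 rfl)).trans (Cov.of r4 rfl)).trans (Cov.of r5 rfl)).trans (Cov.of r6 rfl)).trans (Cov.of r7 rfl)).trans (Cov.of r8 rfl)).trans (Cov.of r9 rfl)⟩

theorem covO : Cov (orbC P lets [] 0 P.m) 0 P.m := (((((((((Cov.of o0 rfl).trans (Cov.of o1 rfl)).trans (Cov.of o2 rfl)).trans (Cov.of o3 rfl)).trans (Cov.of o4 rfl)).trans (Cov.of o5 rfl)).trans (Cov.of o6 rfl)).trans (Cov.of o7 rfl)).trans (Cov.of o8 rfl)).trans (Cov.of o9 rfl)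

end Cfsg.Agent.CosetEnum.MO7T3
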